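-- Team project CHO (S1082/S1083), package [CENT-B2] (helper31).
import Mathlib
import Cfsg.Agent.Lib.Helper99.CHO.Defs

set_option autoImplicit false
open scoped MatrixGroups
open Matrix

namespace Cfsg.Agent.Lib.Helper31.CHO

open Cfsg.Agent.Lib.Helper99.CHO

universe u

section
variable (K : Type u) [Field K]

theorem mB2_zero : MB2 K 0 = 0 := by
  ext i j
  rcases i with i | i | i <;> rcases j with j | j | j <;>
    (try fin_cases i) <;> (try fin_cases j) <;>
    simp [MB2, tab3, mListB2, ix5]

theorem mB2_three : MB2 K 3 = 0 := by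
  ext i j
  rcases i with i | i | i <;> rcases j with j | j | j <;>
    (try fin_cases i) <;> (try fin_cases j) <;>
    simp [MB2, tab3, mListB2, ix5]

theorem mB2_four : MB2 K 4 = 0 := by
  ext i j
  rcases i with i | i | i <;> rcases j with j | j | j <;>
    (try fin_cases i) <;> (try fin_cases j) <;>
    simp [MB2, tab3, mListB2, ix5]

theorem mB2_seven : MB2 K 7 = 0 := by
  ext i j
  rcases i with i | i | i <;> rcases j with j | j | j <;>
    (try fin_cases i) <;> (try fin_cases j) <;>
    simp [MB2, tab3, mListB2, ix5]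

theorem mB2_one : MB2 K 1 = NB2 K 0 * NB2 K 3 := by
  ext i j
  rcases i with i | i | i <;> rcases j with j | j | j <;>
    (try fin_cases i) <;> (try fin_cases j) <;>
    simp [MB2, NB2, tab3, mListB2, nListB2, ix5, Matrix.mul_apply, Fintype.sum_sum_type,
      Fin.sum_univ_two]

theorem mB2_two : MB2 K 2 = - (NB2 K 0 * NB2 K 4) := by
  ext i j
  rcases i with i | i | i <;> rcases j with j | j | j <;>
    (try fin_cases i) <;> (try fin_cases j) <;>
    simp [MB2, NB2, tab3, mListB2, nListB2, ix5, Matrix.mul_apply, Fintype.sum_sum_type,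
      Fin.sum_univ_two]

theorem mB2_five : MB2 K 5 = - (NB2 K 3 * NB2 K 7) := by
  ext i j
  rcases i with i | i | i <;> rcases j with j | j | j <;>
    (try fin_cases i) <;> (try fin_cases j) <;>
    simp [MB2, NB2, tab3, mListB2, nListB2, ix5, Matrix.mul_apply, Fintype.sum_sum_type,
      Fin.sum_univ_two]

theorem mB2_six : MB2 K 6 = NB2 K 4 * NB2 K 7 := by
  ext i j
  rcases i with i | i | i <;> rcases j with j | j | j <;>
    (try fin_cases i) <;> (try fin_cases j) <;>
    simp [MB2, NB2, tab3, mListB2, nListB2, ix5, Matrix.mul_apply, Fintype.sum_sum_type,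
      Fin.sum_univ_two]

end

theorem nroots_chevB2_eq : Cfsg.Lie.chevB2.nroots = 8 := rfl

/-- [CENT-B2] -/
theorem pkgCentB2 : PkgCentB2.{u} := by
  intro K _ g hg r t hr
  have hN : ∀ s : ℕ, s < 8 → g * NB2 K s = NB2 K s * g := by
    intro s hs
    have h := hg (Sum.inr ⟨s, hs⟩)
    simpa only [bB2] using h
  have hNN : ∀ a b : ℕ, a < 8 → b < 8 →
      g * (NB2 K a * NB2 K b) = (NB2 K a * NB2 K b) * g := by
    intro a b ha hb
    rw [← Matrix.mul_assoc, hN a ha, Matrix.mul_assoc, hN b hb, Matrix.mul_assoc]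
  have hM : g * MB2 K r = MB2 K r * g := by
    interval_cases r
    · rw [mB2_zero]; simp
    · rw [mB2_one]; exact hNN 0 3 (by norm_num) (by norm_num)
    · rw [mB2_two, Matrix.mul_neg, Matrix.neg_mul, hNN 0 4 (by norm_num) (by norm_num)]
    · rw [mB2_three]; simp
    · rw [mB2_four]; simp
    · rw [mB2_five, Matrix.mul_neg, Matrix.neg_mul, hNN 3 7 (by norm_num) (by norm_num)]
    · rw [mB2_six]; exact hNN 4 7 (by norm_num) (by norm_num)
    · rw [mB2_seven]; simp
  unfold EB2mat
  rw [mul_add, mul_add, add_mul, add_mul, mul_one, one_mul, Matrix.mul_smul, Matrix.smul_mul,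
    Matrix.mul_smul, Matrix.smul_mul, hN r hr, hM]

end Cfsg.Agent.Lib.Helper31.CHO
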