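-- Team project CHO (S1082/S1083), package [CENT-D4] (helper31).
import Mathlib
import Cfsg.Agent.Lib.Helper99.CHO.Defs

set_option autoImplicit false
open scoped MatrixGroups
open Matrix

namespace Cfsg.Agent.Lib.Helper31.CHO

open Cfsg.Agent.Lib.Helper99.CHO

universe u

theorem nroots_chevD4_eq : Cfsg.Lie.chevD4.nroots = 24 := rfl

/-- [CENT-D4] -/
theorem pkgCentD4 : PkgCentD4.{u} := by
  intro K _ g hg r t hr
  have h := hg (Sum.inr ⟨r, hr⟩)
  simp only [bD4] at h
  unfold ED4mat
  rw [mul_add, add_mul, mul_one, one_mul, Matrix.mul_smul, Matrix.smul_mul, h]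

end Cfsg.Agent.Lib.Helper31.CHO
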