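-- Team project CHO (S1082/S1083), package [NONAB-B2] (helper31).
import Mathlib
import Cfsg.Agent.Lib.Helper99.CHO.Defs

set_option autoImplicit false
open scoped MatrixGroups
open Matrix

namespace Cfsg.Agent.Lib.Helper31.CHO

open Cfsg.Agent.Lib.Helper99.CHO

universe u

/-- [NONAB-B2]: `E_0(1)` and `E_5(1)` do not commute (entry `(f1, f2)`). -/
theorem pkgNonabB2 : PkgNonabB2.{u} := by
  intro K _
  refine ⟨0, 5, 1, 1, by norm_num, by norm_num, ?_⟩
  intro h
  have h1 := congrFun (congrFun h (Sum.inr (Sum.inr 0))) (Sum.inr (Sum.inr 1))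
  simp [EB2mat, NB2, MB2, tab3, nListB2, mListB2, ix5, Matrix.mul_apply, Matrix.add_apply,
    Fintype.sum_sum_type, Fin.sum_univ_two, Matrix.one_apply] at h1

end Cfsg.Agent.Lib.Helper31.CHO
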